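import Cfsg.Agent.Lib.Helper43.PO.MinusCent2
import Cfsg.Agent.Lib.Helper43.PO.PlusRow2

set_option autoImplicit false
set_option linter.unusedSectionVars false

/-!
Plus type: field automorphisms of prime order. Definitions and the centraliser.
-/

namespace Cfsg.Agent.Lib.Helper43.PF

open Matrix QuadraticMap Module Cfsg.Agent.Lib.Helper13.OOut Cfsg.Agent.Lib.Helper43.PA
  Cfsg.Agent.Lib.Helper43.PO Cfsg.Agent.Lib.Helper44

universe u v

variable {F : Type u} [Field F] {F₀ : Type v} [Field F₀] {i₀ : F₀ →+* F}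

lemma hn5 (m : ℕ) (hm : 3 ≤ m) : 5 ≤ Fintype.card (Fin m ⊕ Fin m) := by
  rw [plus_card]; omega

/-- the similarities of the hyperbolic form with `det = mult ^ m` (scalars times `Ω` in
characteristic two). -/
noncomputable def SP (F : Type u) [Field F] [Fintype F] (m : ℕ) (hm : 3 ≤ m) :
    Subgroup ↥(Cfsg.Geo.quadSimilarityGroup ⇑(plusQF m F)) :=
  SS (plusQF m F) (exists_ne_zero _ (plusQF_nondeg m F) (hn5 m hm)) m

/-- the algebraic inner-diagonal group. -/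
noncomputable def DPl (F : Type u) [Field F] [Fintype F] (m : ℕ) (hm : 3 ≤ m) :
    Subgroup (MulAut (Cfsg.POmega F ⇑(plusQF m F))) :=
  (SP F m hm).map (conjPOmega ⇑(plusQF m F))

/-- the standard field automorphism. -/
noncomputable def phiP (m : ℕ) (σ : F ≃+* F) : MulAut (Cfsg.POmega F ⇑(plusQF m F)) :=
  Th ⇑(plusQF m F) (fG _ σ (inv_plus m σ))

section

variable [Fintype F] [Fintype F₀] (m : ℕ) (hm : 3 ≤ m) (σ : F ≃+* F)
  (hι : ∀ x, σ x = x ↔ ∃ y, i₀ y = x)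

include hι

theorem plus_cent_iff (d : MulAut (Cfsg.POmega F ⇑(plusQF m F))) :
    d ∈ DPl F m hm ⊓ Subgroup.centralizer {phiP m σ} ↔
    ∃ g₀ ∈ SP F₀ m hm, conjPOmega ⇑(plusQF m F) (mapSim (isRat_plus i₀ m) g₀) = d :=
  mem_cent_iff_exists _ (plusQF_nondeg m F) (hn5 m hm) σ _ hι
    (isRat_plus i₀ m) (SP F m hm) _ (scal_mem_SS _ (plusQF_nondeg m F) (hn5 m hm) (plus_card m))
    (fun g₀ => (mapSim_mem_SS_iff (isRat_plus i₀ m) (plusQF_nondeg m F)
      (hn5 m hm) m g₀).symm) d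

theorem plus_cent_equiv :
    Nonempty (↥(DPl F m hm ⊓ Subgroup.centralizer {phiP m σ}) ≃* ↥(DPl F₀ m hm)) :=
  cent_equiv _ (plusQF_nondeg m F) (hn5 m hm) σ _ hι
    (isRat_plus i₀ m) (SP F m hm) _ (scal_mem_SS _ (plusQF_nondeg m F) (hn5 m hm) (plus_card m))
    (fun g₀ => (mapSim_mem_SS_iff (isRat_plus i₀ m) (plusQF_nondeg m F)
      (hn5 m hm) m g₀).symm)

end

lemma inn_le_DPl [Fintype F] (m : ℕ) (hm : 3 ≤ m) :
    Cfsg.Inn (Cfsg.POmega F ⇑(plusQF m F)) ≤ DPl F m hm := by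
  rw [inn_eq']
  exact Subgroup.map_mono (Oms_le_SS _ _ _)

theorem normal_DPl_five [Fintype F] (m : ℕ) (hm : 5 ≤ m) : (DPl F m (by omega)).Normal := by
  have htop := Cfsg.Agent.Lib.Helper45.OAut.gamma_top_plus (F := F) hm
  rw [← plusQF_coe] at htop
  exact normal_SS_map _ (plusQF_nondeg m F) (hn5 m (by omega)) m htop

theorem normal_DPl_two [Fintype F] (h2 : (2 : F) = 0) (m : ℕ) (hm : 3 ≤ m) :
    (DPl F m hm).Normal := by
  have : DPl F m hm = Cfsg.Inn _ := SS_map_eq_inn _ h2 _ _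
  rw [this]
  infer_instance

end Cfsg.Agent.Lib.Helper43.PF
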