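import Cfsg.Agent.Lib.Helper43.PF.N4c

set_option autoImplicit false
set_option linter.unusedSectionVars false

/-!
The two corollaries of `N4c` in the form wanted for the degree eight normality proof.
-/

namespace Cfsg.Agent.Lib.Helper43.PF

open Matrix QuadraticMap Module Cfsg.Agent.Lib.Helper13.OOut Cfsg.Agent.Lib.Helper43.PA
  Cfsg.Agent.Lib.Helper43.PO Cfsg.Agent.Lib.Helper44

universe u

variable {F : Type u} [Field F]

/-- [DS] a diagonal matrix `dd` with `dd a * dd a.swap = mu ≠ 0` is a similarity lying in `SP`. -/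
theorem exists_DS [Fintype F] (h2 : (2 : F) ≠ 0) (dd : Fin 4 ⊕ Fin 4 → F) (mu : F) (hmu : mu ≠ 0)
    (h : ∀ a, dd a * dd a.swap = mu) :
    ∃ d ∈ SP F 4 (by norm_num),
      ((d : GL (Fin 4 ⊕ Fin 4) F) : Matrix (Fin 4 ⊕ Fin 4) (Fin 4 ⊕ Fin 4) F)
        = Matrix.diagonal dd := by
  have hne : ∀ a, dd a ≠ 0 := by
    intro a h0
    apply hmu
    rw [← h a, h0, zero_mul]
  obtain ⟨d, hd, hM⟩ := exists_diag_simil h2 4 (by norm_num) (fun a => Units.mk0 (dd a) (hne a))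
    (Units.mk0 mu hmu) (by
      intro a
      apply Units.ext
      simpa using h a)
  exact ⟨d, hd, by simpa using hM⟩

/-- [GEN] `DPl` is generated by `Inn` and the diagonal similarities. -/
theorem DPl_le [Fintype F] (h2 : (2 : F) ≠ 0) :
    DPl F 4 (by norm_num) ≤ Cfsg.Inn (Cfsg.POmega F ⇑(plusQF 4 F)) ⊔
      Subgroup.closure {α | ∃ (d : ↥(Cfsg.Geo.quadSimilarityGroup ⇑(plusQF 4 F)))
        (dd : Fin 4 ⊕ Fin 4 → F) (mu : F), mu ≠ 0 ∧ (∀ a, dd a * dd a.swap = mu) ∧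
        ((d : GL (Fin 4 ⊕ Fin 4) F) : Matrix (Fin 4 ⊕ Fin 4) (Fin 4 ⊕ Fin 4) F)
          = Matrix.diagonal dd ∧ α = conjPOmega ⇑(plusQF 4 F) d} := by
  rintro _ ⟨g, hg, rfl⟩
  obtain ⟨d, dd, μ, hM, hdd, hmem⟩ := exists_diag_mul_mem h2 4 (by norm_num) g hg
  have h1 : conjPOmega ⇑(plusQF 4 F) (g * d) ∈ Cfsg.Inn (Cfsg.POmega F ⇑(plusQF 4 F)) := by
    rw [inn_eq', ← map_sup_ker_eq]
    exact Subgroup.mem_map_of_mem _ hmem
  have h3 : conjPOmega ⇑(plusQF 4 F) g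
      = conjPOmega ⇑(plusQF 4 F) (g * d) * (conjPOmega ⇑(plusQF 4 F) d)⁻¹ := by
    rw [map_mul, mul_inv_cancel_right]
  rw [h3]
  refine Subgroup.mul_mem _ (Subgroup.mem_sup_left h1) (Subgroup.inv_mem _
    (Subgroup.mem_sup_right (Subgroup.subset_closure ?_)))
  refine ⟨d, fun a => (dd a : F), (μ : F), μ.ne_zero, ?_, hM, rfl⟩
  intro a
  have := congrArg Units.val (hdd a)
  simpa using this

end Cfsg.Agent.Lib.Helper43.PF
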