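import Cfsg.Agent.Lib.Helper43.PF.K2a
import Cfsg.Agent.Lib.Helper44.GraphSplit

set_option autoImplicit false
set_option linter.unusedSectionVars false

/-!
The splitting of the class of a field automorphism of order two of `PΩ⁺`, odd characteristic.
-/

namespace Cfsg.Agent.Lib.Helper43.PF

open Matrix QuadraticMap Module Cfsg.Agent.Lib.Helper13.OOut Cfsg.Agent.Lib.Helper43.PA
  Cfsg.Agent.Lib.Helper43.PO Cfsg.Agent.Lib.Helper44

universe u v

variable {F : Type u} [Field F] {F₀ : Type v} [Field F₀] {i₀ : F₀ →+* F}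

section

variable [Fintype F] [Fintype F₀] (m : ℕ) (hm : 3 ≤ m) (h2 : (2 : F) ≠ 0)
  (hcard : Fintype.card F = Fintype.card F₀ ^ 2)

local notation "Q" => plusQF m F
local notation "Q₀" => plusQF m F₀

include hm h2 hcard

/-- rational special isometries are in `Ω` over the quadratic extension. -/
theorem mapSim_SOs_mem (y : ↥(Cfsg.Geo.quadSimilarityGroup ⇑Q₀)) (hy : y ∈ SOs Q₀) :
    mapSim (isRat_plus i₀ m) y ∈ Oms Q := by
  have h2₀ : (2 : F₀) ≠ 0 := fun h => h2 ((two_iff i₀).1 h)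
  obtain ⟨s, hs, rfl⟩ := exists_ofO_of_mem_SOs hy
  obtain ⟨l, hl, hsl⟩ := exists_list_reflectionMatrix Q₀ (plusQF_nondeg m F₀)
    (Or.inr (by rw [plus_card]; omega)) s
  rw [mapSim_ofO, ofO_mem_Oms, mapO_mem_Omega_iff (isRat_plus i₀ m) (plusQF_nondeg m F)
    (Or.inr (by rw [plus_card]; omega)) s l hl hsl]
  refine ⟨?_, isSquare_of_two hcard _⟩
  have hd := det_of_prod Q₀ s l hl hsl
  rw [mem_specialIsometryGroup.1 hs] at hd
  by_contra hne
  rw [Nat.not_even_iff_odd] at hne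
  rw [hne.neg_one_pow] at hd
  apply h2₀
  linear_combination hd

theorem mapSim_ker_mem (z : ↥(Cfsg.Geo.quadSimilarityGroup ⇑Q₀))
    (hz : z ∈ (conjPOmega ⇑Q₀).ker) :
    mapSim (isRat_plus i₀ m) z ∈ (conjPOmega ⇑Q).ker := by
  have hne : Nonempty (Fin m ⊕ Fin m) := ⟨Sum.inl ⟨0, by omega⟩⟩
  rw [mem_ker_conjPOmega_iff' Q (plusQF_nondeg m F) (hn5 m hm)]
  rw [mem_ker_conjPOmega_iff' Q₀ (plusQF_nondeg m F₀) (hn5 m hm)] at hz
  exact (map_scalar_iff z.1).2 hz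

/-- rational class preserving similarities with square multiplier. -/
theorem mapSim_sq_mem (g₀ : ↥(Cfsg.Geo.quadSimilarityGroup ⇑Q₀)) (hg : g₀ ∈ SP F₀ m hm)
    (hsq : IsSquare (multF Q₀ g₀ : F₀)) : mapSim (isRat_plus i₀ m) g₀ ∈ (Oms (plusQF m F) ⊔ (conjPOmega ⇑(plusQF m F)).ker) := by
  have h2₀ : (2 : F₀) ≠ 0 := fun h => h2 ((two_iff i₀).1 h)
  have hQ₀ := plusQF_nondeg m F₀
  have hex₀ := exists_ne_zero _ hQ₀ (hn5 m hm)
  have h1 : g₀ ∈ (psi1 h2₀ hQ₀ hex₀ m (plus_card m)).ker :=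
    (mem_ker_psi1_iff h2₀ hQ₀ hex₀ m (plus_card m) g₀).2 ⟨hsq, (mem_SS_odd h2₀ _ _ _ _).1 hg⟩
  rw [ker_psi1_eq' h2₀ hQ₀ (hn5 m hm) hex₀ m (plus_card m)] at h1
  obtain ⟨y, hy, z, hz, rfl⟩ := Subgroup.mem_sup_of_normal_right.1 h1
  rw [map_mul]
  exact mul_mem (Subgroup.mem_sup_left (mapSim_SOs_mem m hm h2 hcard y hy))
    (Subgroup.mem_sup_right (mapSim_ker_mem m hm h2 hcard z hz))

theorem mapSim_mem_psi1 (g₀ : ↥(Cfsg.Geo.quadSimilarityGroup ⇑Q₀)) (hg : g₀ ∈ SP F₀ m hm) :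
    mapSim (isRat_plus i₀ m) g₀ ∈ (psi1 h2 (plusQF_nondeg m F)
      (exists_ne_zero _ (plusQF_nondeg m F) (hn5 m hm)) m (plus_card m)).ker := by
  have hQ := plusQF_nondeg m F
  have hex := exists_ne_zero _ hQ (hn5 m hm)
  refine (mem_ker_psi1_iff h2 hQ hex m (plus_card m) _).2 ⟨?_, ?_⟩
  · rw [multF_mapSim (isRat_plus i₀ m) hex]
    exact isSquare_of_two hcard _
  · exact (mem_SS_odd h2 _ _ _ _).1 ((mapSim_mem_SS_iff (isRat_plus i₀ m) hQ (hn5 m hm) m g₀).2 hg)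

lemma negOne_mem : negOneO Q ∈ Cfsg.Omega F ⇑Q := by
  have hc := ringChar_ne_two_of h2
  have hodd : Odd (Fintype.card F) := Nat.odd_iff.2 (FiniteField.odd_card_of_char_ne_two hc)
  rw [plus_negOneO_mem_iff hodd m (by omega)]
  rintro ⟨-, h⟩
  rw [hcard] at h hodd
  have h3 : Fintype.card F₀ % 4 = 0 ∨ Fintype.card F₀ % 4 = 1 ∨ Fintype.card F₀ % 4 = 2 ∨
      Fintype.card F₀ % 4 = 3 := by omega
  rw [pow_two, Nat.mul_mod] at h
  rcases h3 with h3 | h3 | h3 | h3 <;> rw [h3] at h <;> omega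

/-- the standard rational similarity with non-square multiplier. -/
theorem mapSim_delta_mem_iff (ν₀ : F₀ˣ) (δ₀ : ↥(Cfsg.Geo.quadSimilarityGroup ⇑Q₀))
    (hδ : ((δ₀ : GL (Fin m ⊕ Fin m) F₀) : Matrix (Fin m ⊕ Fin m) (Fin m ⊕ Fin m) F₀)
        = Matrix.diagonal (Sum.elim (fun _ => (ν₀ : F₀)) (fun _ => 1)))
    (θ : Fˣ) (hθ : (θ : F) * θ = i₀ ν₀) :
    mapSim (isRat_plus i₀ m) δ₀ ∈ (Oms (plusQF m F) ⊔ (conjPOmega ⇑(plusQF m F)).ker) ↔ IsSquare ((θ : F) ^ m) := by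
  have hQ := plusQF_nondeg m F
  have hn := hn5 m hm
  have hex := exists_ne_zero _ hQ hn
  have hθ0 : (θ : F) ≠ 0 := θ.ne_zero
  set k := scalSimil Q θ⁻¹ * mapSim (isRat_plus i₀ m) δ₀ with hk
  have hkm : ((k : GL (Fin m ⊕ Fin m) F) : Matrix (Fin m ⊕ Fin m) (Fin m ⊕ Fin m) F)
      = Matrix.diagonal (Sum.elim (fun _ => (θ : F)) (fun _ => (θ : F)⁻¹)) := by
    have e1 : ((mapSim (isRat_plus i₀ m) δ₀ : GL (Fin m ⊕ Fin m) F) :
        Matrix (Fin m ⊕ Fin m) (Fin m ⊕ Fin m) F) =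
        Matrix.diagonal (Sum.elim (fun _ => i₀ ν₀) (fun _ => 1)) := by
      show (δ₀.1.1).map i₀ = _
      rw [hδ]
      ext a b
      by_cases hab : a = b
      · subst hab
        rcases a with a | a <;> simp
      · simp [hab]
    rw [hk, Subgroup.coe_mul, Units.val_mul, scalSimil_coe, e1, Matrix.smul_mul, Matrix.one_mul,
      ← Matrix.diagonal_smul]
    congr 1
    funext a
    rcases a with a | a
    · simp only [Pi.smul_apply, Sum.elim_inl, smul_eq_mul, Units.val_inv_eq_inv_val, ← hθ]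
      field_simp
    · simp
  have hiso : k.1 ∈ Cfsg.isometryGroup F ⇑Q := by
    rw [mem_isometryGroup]
    intro v
    rw [hkm, plusQF_apply, plusQF_apply]
    apply Finset.sum_congr rfl
    intro i _
    simp only [Matrix.mulVec_diagonal, Sum.elim_inl, Sum.elim_inr]
    field_simp
  have hkO : k = ofO Q ⟨k.1, hiso⟩ := rfl
  have hSO : (⟨k.1, hiso⟩ : ↥(Cfsg.isometryGroup F ⇑Q)) ∈ Cfsg.specialIsometryGroup F ⇑Q := by
    rw [mem_specialIsometryGroup]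
    show ((k : GL (Fin m ⊕ Fin m) F) : Matrix (Fin m ⊕ Fin m) (Fin m ⊕ Fin m) F).det = 1
    rw [hkm, Matrix.det_diagonal, Fintype.prod_sum_type]
    simp [hθ0]
  have h1 : mapSim (isRat_plus i₀ m) δ₀ ∈ (Oms (plusQF m F) ⊔ (conjPOmega ⇑(plusQF m F)).ker) ↔ k ∈ (Oms (plusQF m F) ⊔ (conjPOmega ⇑(plusQF m F)).ker) := by
    rw [hk]
    exact (Subgroup.mul_mem_cancel_left _
      (Subgroup.mem_sup_right (scal_mem_ker Q hQ hn θ⁻¹))).symm
  rw [h1, ← diag_mem_Omega_iff m hm θ ⟨k.1, hiso⟩ hkm, ← ofO_mem_Oms, ← hkO]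
  have hinf := sup_ker_inf_SOs h2 Q hQ hn (negOne_mem m hm h2 hcard)
  constructor
  · intro h
    rw [← hinf]
    exact ⟨h, by rw [hkO]; exact ofO_mem_SOs.2 hSO⟩
  · intro h
    exact Subgroup.mem_sup_left h

end

theorem plus_count_two [Fintype F] [Fintype F₀] (m : ℕ) (hm : 3 ≤ m) (σ : F ≃+* F)
    (hι : ∀ x, σ x = x ↔ ∃ y, i₀ y = x) (h2 : (2 : F) ≠ 0)
    (hcard : Fintype.card F = Fintype.card F₀ ^ 2) :
    ((Odd m ∧ Fintype.card F₀ % 4 = 1) →
      Cfsg.splitClassCount (DPl F m hm) (Cfsg.Inn _) (phiP m σ) = 2) ∧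
    (¬ (Odd m ∧ Fintype.card F₀ % 4 = 1) →
      Cfsg.splitClassCount (DPl F m hm) (Cfsg.Inn _) (phiP m σ) = 4) := by
  have h2₀ : (2 : F₀) ≠ 0 := fun h => h2 ((two_iff i₀).1 h)
  have hQ := plusQF_nondeg m F
  have hn := hn5 m hm
  have hex := exists_ne_zero _ hQ hn
  have hneg := negOne_mem m hm h2 hcard
  -- the groups
  have hSP : SP F m hm = (chi2 h2 hQ hex m (plus_card m)).ker := by
    ext g
    rw [SP, mem_SS_odd h2, MonoidHom.mem_ker, chi2_eq_one_iff]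
  obtain ⟨ν, hν⟩ := exists_nonsquare_unit h2
  obtain ⟨δ, hδ1, hδ2⟩ := plus_exists_simil' (F := F) m (by omega) ν
  have hδk : δ ∈ (chi2 h2 hQ hex m (plus_card m)).ker := by
    rw [MonoidHom.mem_ker, chi2_eq_one_iff, hδ1, hδ2, det_diag_plus]
  have hM := ker_psi1_eq' h2 hQ hn hex m (plus_card m)
  have hMΓ := ker_psi1_le_chi2 h2 hQ hex m (plus_card m)
  have hrel := relIndex_ker_psi1_chi2 h2 hQ hex m (plus_card m) δ (by rw [hδ2]; exact hν) hδk
  have hNM : Oms (plusQF m F) ⊔ (conjPOmega ⇑(plusQF m F)).ker ≤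
      (psi1 h2 hQ hex m (plus_card m)).ker := by
    rw [hM]; exact sup_le_sup_right (Oms_le_SOs _) _
  have hkerN : (conjPOmega ⇑(plusQF m F)).ker ≤
      Oms (plusQF m F) ⊔ (conjPOmega ⇑(plusQF m F)).ker := le_sup_right
  have hkerM := hkerN.trans hNM
  have hrelN : (Oms (plusQF m F) ⊔ (conjPOmega ⇑(plusQF m F)).ker).relIndex
      (psi1 h2 hQ hex m (plus_card m)).ker = 2 := by
    rw [hM]; exact relIndex_sup_ker h2 _ hQ hn hneg
  have hK : Cfsg.Inn (Cfsg.POmega F ⇑(plusQF m F)) =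
      (Oms (plusQF m F) ⊔ (conjPOmega ⇑(plusQF m F)).ker).map (conjPOmega ⇑(plusQF m F)) := by
    rw [map_sup_ker_eq, ← inn_eq']
  have hD : DPl F m hm = (chi2 h2 hQ hex m (plus_card m)).ker.map (conjPOmega ⇑(plusQF m F)) := by
    rw [DPl, hSP]
  have hrelmap : ((psi1 h2 hQ hex m (plus_card m)).ker.map (conjPOmega ⇑(plusQF m F))).relIndex
      (DPl F m hm) = 2 := by
    rw [hD, Subgroup.relIndex_map_map, sup_eq_left.2 hkerM, sup_eq_left.2 (hkerM.trans hMΓ), hrel]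
  have hrelInn : (Cfsg.Inn (Cfsg.POmega F ⇑(plusQF m F))).relIndex (DPl F m hm) = 4 := by
    rw [hD, hK, Subgroup.relIndex_map_map, sup_eq_left.2 hkerN, sup_eq_left.2 (hkerM.trans hMΓ),
      ← Subgroup.relIndex_mul_relIndex _ _ _ hNM hMΓ, hrelN, hrel]
  -- the rational similarity
  obtain ⟨ν₀, hν₀⟩ := exists_nonsquare_unit h2₀
  obtain ⟨δ₀, hδ₀1, hδ₀2⟩ := plus_exists_simil' (F := F₀) m (by omega) ν₀
  have hδ₀S : δ₀ ∈ SP F₀ m hm := by
    rw [SP, mem_SS_odd h2₀, hδ₀1, hδ₀2, det_diag_plus]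
  obtain ⟨θ', hθ'⟩ := isSquare_of_two (i₀ := i₀) hcard (ν₀ : F₀)
  have hθ0 : θ' ≠ 0 := by
    rintro rfl
    rw [mul_zero] at hθ'
    exact ν₀.ne_zero ((map_eq_zero i₀).1 hθ')
  obtain ⟨θ, rfl⟩ : ∃ θ : Fˣ, (θ : F) = θ' := ⟨Units.mk0 θ' hθ0, rfl⟩
  have hkey := mapSim_delta_mem_iff m hm h2 hcard ν₀ δ₀ hδ₀1 θ hθ'.symm
  have hsqθ := isSquare_theta_iff i₀ h2 hcard (ν₀ : F₀) hν₀ (θ : F) hθ'.symm
  have hodd₀ := FiniteField.odd_card_of_char_ne_two (ringChar_ne_two_of h2₀)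
  have hcrit : IsSquare ((θ : F) ^ m) ↔ ¬ (Odd m ∧ Fintype.card F₀ % 4 = 1) := by
    rw [isSquare_pow_iff, hsqθ, ← Nat.not_even_iff_odd]
    constructor
    · rintro (h | h) ⟨h3, h4⟩
      · exact h3 h
      · omega
    · intro h
      by_cases he : Even m
      · exact Or.inl he
      · right
        have : ¬ Fintype.card F₀ % 4 = 1 := fun h4 => h ⟨he, h4⟩
        omega
  rw [splitClassCount_eq_relIndex _ _ (inn_le_DPl m hm)]
  have hcent : ∀ d, d ∈ Subgroup.centralizer {phiP m σ} ⊓ DPl F m hm ↔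
      ∃ g₀ ∈ SP F₀ m hm, conjPOmega ⇑(plusQF m F) (mapSim (isRat_plus i₀ m) g₀) = d := by
    intro d
    rw [inf_comm]
    exact plus_cent_iff m hm σ hι d
  constructor
  · intro hc
    have hδN : mapSim (isRat_plus i₀ m) δ₀ ∉
        Oms (plusQF m F) ⊔ (conjPOmega ⇑(plusQF m F)).ker := by
      rw [hkey, hcrit]
      exact fun h => h hc
    have hδM := mapSim_mem_psi1 (i₀ := i₀) m hm h2 hcard δ₀ hδ₀S
    have hL : Cfsg.Inn (Cfsg.POmega F ⇑(plusQF m F)) ⊔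
        (Subgroup.centralizer {phiP m σ} ⊓ DPl F m hm) =
        (psi1 h2 hQ hex m (plus_card m)).ker.map (conjPOmega ⇑(plusQF m F)) := by
      apply le_antisymm
      · apply sup_le
        · rw [hK]; exact Subgroup.map_mono hNM
        · intro d hd
          obtain ⟨g₀, hg₀, rfl⟩ := (hcent d).1 hd
          exact ⟨_, mapSim_mem_psi1 m hm h2 hcard g₀ hg₀, rfl⟩
      · rintro _ ⟨h, hh, rfl⟩
        by_cases hhN : h ∈ Oms (plusQF m F) ⊔ (conjPOmega ⇑(plusQF m F)).ker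
        · apply Subgroup.mem_sup_left
          rw [hK]; exact ⟨h, hhN, rfl⟩
        · have h3 : h * mapSim (isRat_plus i₀ m) δ₀ ∈
              Oms (plusQF m F) ⊔ (conjPOmega ⇑(plusQF m F)).ker := by
            rw [mul_mem_iff_of_relIndex_two hrelN hh hδM]
            tauto
          have e : h = (h * mapSim (isRat_plus i₀ m) δ₀) * (mapSim (isRat_plus i₀ m) δ₀)⁻¹ := by
            group
          rw [e, map_mul]
          refine mul_mem (Subgroup.mem_sup_left ?_) (Subgroup.mem_sup_right ?_)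
          · rw [hK]; exact ⟨_, h3, rfl⟩
          · rw [map_inv]
            exact inv_mem ((hcent _).2 ⟨δ₀, hδ₀S, rfl⟩)
    rw [hL, hrelmap]
  · intro hc
    have hδN : mapSim (isRat_plus i₀ m) δ₀ ∈
        Oms (plusQF m F) ⊔ (conjPOmega ⇑(plusQF m F)).ker := by
      rw [hkey, hcrit]
      exact hc
    have hle : Subgroup.centralizer {phiP m σ} ⊓ DPl F m hm ≤
        Cfsg.Inn (Cfsg.POmega F ⇑(plusQF m F)) := by
      intro d hd
      obtain ⟨g₀, hg₀, rfl⟩ := (hcent d).1 hd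
      rw [hK]
      refine ⟨_, ?_, rfl⟩
      by_cases hsq : IsSquare (multF (plusQF m F₀) g₀ : F₀)
      · exact mapSim_sq_mem m hm h2 hcard g₀ hg₀ hsq
      · have hex₀ := exists_ne_zero _ (plusQF_nondeg m F₀) hn
        have h5 : IsSquare (multF (plusQF m F₀) (g₀ * δ₀) : F₀) := by
          have h1 : multHom _ hex₀ (g₀ * δ₀) = multHom _ hex₀ g₀ * multHom _ hex₀ δ₀ :=
            map_mul _ _ _
          rw [multHom_apply, multHom_apply, multHom_apply, hδ₀2] at h1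
          rw [h1, Units.val_mul]
          exact isSquare_mul_of_not hsq hν₀
        have h6 := mapSim_sq_mem (i₀ := i₀) m hm h2 hcard (g₀ * δ₀) (mul_mem hg₀ hδ₀S) h5
        rw [map_mul] at h6
        exact (Subgroup.mul_mem_cancel_right _ hδN).1 h6
    rw [sup_eq_left.2 hle, hrelInn]

end Cfsg.Agent.Lib.Helper43.PF
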