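import Cfsg.Agent.Lib.Helper43.PF.Defs

set_option autoImplicit false
set_option linter.unusedSectionVars false

/-!
Arithmetic for the splitting of the class of a field automorphism of order two.
-/

namespace Cfsg.Agent.Lib.Helper43.PF

open Matrix QuadraticMap Module Cfsg.Agent.Lib.Helper13.OOut Cfsg.Agent.Lib.Helper43.PA
  Cfsg.Agent.Lib.Helper43.PO Cfsg.Agent.Lib.Helper44

universe u v

variable {F : Type u} [Field F] {F₀ : Type v} [Field F₀]

lemma ringChar_ne_two_of (h2 : (2 : F) ≠ 0) : ringChar F ≠ 2 := by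
  intro h
  have : CharP F 2 := by rw [← h]; exact ringChar.charP F
  exact h2 (CharTwo.two_eq_zero)

theorem isSquare_theta_iff [Fintype F] [Fintype F₀] (i₀ : F₀ →+* F) (h2 : (2 : F) ≠ 0)
    (hcard : Fintype.card F = Fintype.card F₀ ^ 2) (ν₀ : F₀) (hν : ¬ IsSquare ν₀) (θ : F)
    (hθ : θ * θ = i₀ ν₀) : IsSquare θ ↔ Fintype.card F₀ % 4 = 3 := by
  have h2₀ : (2 : F₀) ≠ 0 := fun h => h2 ((two_iff i₀).1 h)
  have hc := ringChar_ne_two_of h2
  have hc₀ := ringChar_ne_two_of h2₀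
  have hν0 : ν₀ ≠ 0 := by rintro rfl; exact hν ⟨0, by simp⟩
  have hθ0 : θ ≠ 0 := by
    rintro rfl
    rw [mul_zero] at hθ
    exact hν0 ((map_eq_zero i₀).1 hθ.symm)
  have hodd₀ := FiniteField.odd_card_of_char_ne_two hc₀
  obtain ⟨k, hk⟩ : ∃ k, Fintype.card F₀ = 2 * k + 1 := ⟨Fintype.card F₀ / 2, by omega⟩
  have hνk : ν₀ ^ k = -1 := by
    have e : Fintype.card F₀ / 2 = k := by omega
    rcases FiniteField.pow_dichotomy hc₀ hν0 with h | h
    · exact absurd ((FiniteField.isSquare_iff hc₀ hν0).2 h) hν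
    · rwa [e] at h
  have e2 : Fintype.card F / 2 = 2 * (k * (k + 1)) := by
    rw [hcard, hk]
    have : (2 * k + 1) ^ 2 = 2 * (2 * (k * (k + 1))) + 1 := by ring
    omega
  rw [FiniteField.isSquare_iff hc hθ0, e2, pow_mul, pow_two, hθ, pow_mul, ← map_pow, hνk, map_neg,
    map_one, hk]
  constructor
  · intro h
    rcases Nat.even_or_odd (k + 1) with he | ho
    · obtain ⟨j, hj⟩ := he
      omega
    · rw [ho.neg_one_pow] at h
      exfalso
      apply h2
      linear_combination -h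
  · intro h
    have he : Even (k + 1) := ⟨(k + 1) / 2, by omega⟩
    exact he.neg_one_pow

lemma isSquare_pow_iff [Fintype F] (θ : F) (m : ℕ) : IsSquare (θ ^ m) ↔ Even m ∨ IsSquare θ := by
  constructor
  · intro h
    rcases Nat.even_or_odd m with he | ⟨j, rfl⟩
    · exact Or.inl he
    · right
      by_cases h0 : θ = 0
      · exact ⟨0, by simp [h0]⟩
      obtain ⟨z, hz⟩ := h
      refine ⟨z / θ ^ j, ?_⟩
      have : θ ^ j ≠ 0 := pow_ne_zero _ h0
      field_simp
      rw [pow_two z, ← hz]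
      ring
  · rintro (h | h)
    · exact h.isSquare_pow _
    · exact h.pow _

theorem diag_mem_Omega_iff [Fintype F] (m : ℕ) (hm : 3 ≤ m) (θ : Fˣ)
    (t : ↥(Cfsg.isometryGroup F ⇑(plusQF m F)))
    (ht : ((t : GL (Fin m ⊕ Fin m) F) : Matrix (Fin m ⊕ Fin m) (Fin m ⊕ Fin m) F)
      = Matrix.diagonal (Sum.elim (fun _ => (θ : F)) (fun _ => (θ : F)⁻¹))) :
    t ∈ Cfsg.Omega F ⇑(plusQF m F) ↔ IsSquare ((θ : F) ^ m) := by
  have h3 := Cfsg.Agent.S2611.result (F := F) (m := m) (by omega) (Or.inr (by omega))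
    (Matrix.GeneralLinearGroup.scalar (Fin m) θ)
  rw [← plusQF_coe] at h3
  have h4 : ((Matrix.GeneralLinearGroup.scalar (Fin m) θ : GL (Fin m) F) :
      Matrix (Fin m) (Fin m) F) = Matrix.diagonal (fun _ => (θ : F)) := by
    simp
  have h0 : (θ : F) ≠ 0 := θ.ne_zero
  have hinv : (Matrix.diagonal (fun _ : Fin m => (θ : F)))⁻¹
      = Matrix.diagonal (fun _ : Fin m => (θ : F)⁻¹) := by
    apply Matrix.inv_eq_right_inv
    rw [Matrix.diagonal_mul_diagonal]
    simp [h0]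
  have h6 : ((Matrix.GeneralLinearGroup.scalar (Fin m) θ : GL (Fin m) F) :
      Matrix (Fin m) (Fin m) F).det = (θ : F) ^ m := by
    rw [h4, Matrix.det_diagonal]; simp
  rw [h6, h4, hinv, Matrix.diagonal_transpose, Matrix.fromBlocks_diagonal] at h3
  rw [← h3]
  constructor
  · intro h
    exact ⟨t, h, ht⟩
  · rintro ⟨g, hg, hgm⟩
    have : g = t := Subtype.ext (Units.ext (hgm.trans ht.symm))
    rwa [← this]

end Cfsg.Agent.Lib.Helper43.PF
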