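import Cfsg.Agent.Lib.Helper62.PF.N4
import Cfsg.Agent.Lib.Helper43.PF.K2
import Cfsg.Agent.Lib.Helper71.PF.K1

set_option autoImplicit false
set_option linter.unusedSectionVars false

/-!
Plus type: the row on field automorphisms of prime order.
-/

namespace Cfsg.Agent.Lib.Helper43.PF

open Matrix QuadraticMap Module Cfsg.Agent.Lib.Helper13.OOut Cfsg.Agent.Lib.Helper43.PA
  Cfsg.Agent.Lib.Helper43.PO Cfsg.Agent.Lib.Helper44

universe u v

variable {F : Type u} [Field F] {F₀ : Type v} [Field F₀]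

theorem normal_DPl [Fintype F] (m : ℕ) (hm : 4 ≤ m) : (DPl F m (by omega)).Normal := by
  by_cases h2 : (2 : F) = 0
  · exact normal_DPl_two h2 m (by omega)
  rcases Nat.lt_or_ge m 5 with h | h
  · obtain rfl : m = 4 := by omega
    exact Cfsg.Agent.Lib.Helper62.PF.normal_DPl_four h2
  · exact normal_DPl_five m h

theorem row_S2715 [Fintype F] [Fintype F₀] {p f : ℕ} [Fact p.Prime]
    (hF : Fintype.card F = p ^ f) (hf : 1 ≤ f) {m : ℕ} (hm : 4 ≤ m)
    (x : MulAut (Cfsg.POmega F (Cfsg.quadFormPlus m F)))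
    (hx : Cfsg.IsFieldAutClassPOmega (Cfsg.quadFormPlus m F) x) {r : ℕ} (hr : r.Prime)
    (hxr : orderOf x = r) (hF₀ : Fintype.card F₀ = p ^ (f / r)) :
    r ∣ f ∧ Nonempty (↥(Cfsg.inndiagPOmegaPlus m F ⊓ Subgroup.centralizer {x}) ≃*
      ↥(Cfsg.inndiagPOmegaPlus m F₀)) ∧
    ((Odd r ∨ p = 2) → Cfsg.splitClassCount (Cfsg.inndiagPOmegaPlus m F)
      (Cfsg.Inn (Cfsg.POmega F (Cfsg.quadFormPlus m F))) x = 1) ∧
    ((r = 2 ∧ p ≠ 2 ∧ Odd m ∧ p ^ (f / 2) % 4 = 1) →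
      Cfsg.splitClassCount (Cfsg.inndiagPOmegaPlus m F)
        (Cfsg.Inn (Cfsg.POmega F (Cfsg.quadFormPlus m F))) x = 2) ∧
    ((r = 2 ∧ p ≠ 2 ∧ ¬ (Odd m ∧ p ^ (f / 2) % 4 = 1)) →
      Cfsg.splitClassCount (Cfsg.inndiagPOmegaPlus m F)
        (Cfsg.Inn (Cfsg.POmega F (Cfsg.quadFormPlus m F))) x = 4) := by
  have hQ := plusQF_nondeg m F
  have hn := hn5 m (by omega)
  rw [inndiagPlus_def, inndiagPlus_def]
  revert x
  rw [← plusQF_coe, ← plusQF_coe]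
  intro x hx hxr
  rw [inndiagPlus_eq m (by omega) (exists_ne_zero _ hQ hn),
    inndiagPlus_eq m (by omega) (exists_ne_zero _ (plusQF_nondeg m F₀) hn)]
  change r ∣ f ∧ Nonempty (↥(DPl F m (by omega) ⊓ Subgroup.centralizer {x}) ≃*
      ↥(DPl F₀ m (by omega))) ∧
    ((Odd r ∨ p = 2) → Cfsg.splitClassCount (DPl F m (by omega)) (Cfsg.Inn _) x = 1) ∧
    ((r = 2 ∧ p ≠ 2 ∧ Odd m ∧ p ^ (f / 2) % 4 = 1) →
      Cfsg.splitClassCount (DPl F m (by omega)) (Cfsg.Inn _) x = 2) ∧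
    ((r = 2 ∧ p ≠ 2 ∧ ¬ (Odd m ∧ p ^ (f / 2) % 4 = 1)) →
      Cfsg.splitClassCount (DPl F m (by omega)) (Cfsg.Inn _) x = 4)
  have hD := normal_DPl (F := F) m hm
  obtain ⟨α, φ, σ, hσ, hstd, e⟩ := hx
  rw [(isFieldAut_iff _ σ (inv_plus m σ) φ).1 hstd] at e
  have hord : orderOf σ = r := by
    rw [← orderOf_Th_fG _ hQ hn σ (inv_plus m σ), ← e, orderOf_conj', hxr]
  have hrf : r ∣ f := hord ▸ orderOf_dvd_of_card hF σ
  obtain ⟨i₀, hι⟩ := exists_embedding hF hf σ F₀ (by rw [hF₀, hord])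
  have hchar : (2 : F) = 0 ↔ p = 2 := by
    have hp : Fact p.Prime := inferInstance
    have hcp : CharP F p := charP_of_card_eq_prime_pow hF
    constructor
    · intro h
      have h3 : ((2 : ℕ) : F) = 0 := by exact_mod_cast h
      have := (CharP.cast_eq_zero_iff F p 2).1 h3
      exact ((Nat.prime_dvd_prime_iff_eq hp.out Nat.prime_two).1 this)
    · rintro rfl
      exact_mod_cast CharP.cast_eq_zero F 2
  refine ⟨hrf, ?_, ?_, ?_, ?_⟩
  · obtain ⟨E1⟩ := centralizer_conj_equiv (DPl F m _) α x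
    rw [e] at E1
    obtain ⟨E2⟩ := plus_cent_equiv m (by omega) σ hι
    exact ⟨E1.trans E2⟩
  · intro h
    rw [← splitClassCount_conj _ _ α x, e]
    exact Cfsg.Agent.Lib.Helper71.PF.plus_count_one m (by omega) σ hι (h.imp (fun h => hord ▸ h) hchar.2)
  · rintro ⟨rfl, hp2, h⟩
    rw [← splitClassCount_conj _ _ α x, e]
    exact (plus_count_two m (by omega) σ hι (fun h => hp2 (hchar.1 h)) (by
      rw [hF, hF₀, ← pow_mul, Nat.div_mul_cancel hrf])).1 (by rw [hF₀]; exact h)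
  · rintro ⟨rfl, hp2, h⟩
    rw [← splitClassCount_conj _ _ α x, e]
    exact (plus_count_two m (by omega) σ hι (fun h => hp2 (hchar.1 h)) (by
      rw [hF, hF₀, ← pow_mul, Nat.div_mul_cancel hrf])).2 (by rw [hF₀]; exact h)

end Cfsg.Agent.Lib.Helper43.PF
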