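import Cfsg.Agent.Lib.Helper43.PF.K2a
import Cfsg.Agent.Lib.Helper44.GraphSplit

set_option autoImplicit false
set_option linter.unusedSectionVars false

/-!
Class preserving similarities of the hyperbolic form are diagonal modulo `Ω` and the scalars.
-/

namespace Cfsg.Agent.Lib.Helper43.PF

open Matrix QuadraticMap Module Cfsg.Agent.Lib.Helper13.OOut Cfsg.Agent.Lib.Helper43.PA
  Cfsg.Agent.Lib.Helper43.PO Cfsg.Agent.Lib.Helper44

universe u

variable {F : Type u} [Field F]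

/-- diagonal similarities. -/
theorem exists_diag_simil' (m : ℕ) (dd : Fin m ⊕ Fin m → Fˣ) (μ : Fˣ)
    (h : ∀ a, dd a * dd a.swap = μ) :
    ∃ d : ↥(Cfsg.Geo.quadSimilarityGroup ⇑(plusQF m F)),
      ((d : GL (Fin m ⊕ Fin m) F) : Matrix (Fin m ⊕ Fin m) (Fin m ⊕ Fin m) F)
        = Matrix.diagonal (fun a => (dd a : F)) ∧
      ∀ v, plusQF m F (((d : GL (Fin m ⊕ Fin m) F) :
        Matrix (Fin m ⊕ Fin m) (Fin m ⊕ Fin m) F) *ᵥ v) = (μ : F) * plusQF m F v := by
  have hmul : Matrix.diagonal (fun a => (dd a : F)) * Matrix.diagonal (fun a => ((dd a)⁻¹ : Fˣ).1)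
      = 1 := by
    rw [Matrix.diagonal_mul_diagonal, ← Matrix.diagonal_one]
    congr 1
    funext a
    simp
  have hmul' : Matrix.diagonal (fun a => ((dd a)⁻¹ : Fˣ).1) * Matrix.diagonal (fun a => (dd a : F))
      = 1 := by
    rw [Matrix.diagonal_mul_diagonal, ← Matrix.diagonal_one]
    congr 1
    funext a
    simp
  let d₀ : GL (Fin m ⊕ Fin m) F := ⟨_, _, hmul, hmul'⟩
  have hq : ∀ v, plusQF m F ((d₀ : Matrix (Fin m ⊕ Fin m) (Fin m ⊕ Fin m) F) *ᵥ v)
      = (μ : F) * plusQF m F v := by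
    intro v
    show plusQF m F (Matrix.diagonal (fun a => (dd a : F)) *ᵥ v) = _
    rw [plusQF_apply, plusQF_apply, Finset.mul_sum]
    apply Finset.sum_congr rfl
    intro i _
    simp only [Matrix.mulVec_diagonal]
    have := congrArg Units.val (h (Sum.inl i))
    simp only [Units.val_mul, Sum.swap_inl] at this
    rw [← this]
    ring
  exact ⟨⟨d₀, ⟨μ, hq⟩⟩, rfl, hq⟩

theorem exists_diag_simil [Fintype F] (h2 : (2 : F) ≠ 0) (m : ℕ) (hm : 3 ≤ m)
    (dd : Fin m ⊕ Fin m → Fˣ) (μ : Fˣ) (h : ∀ a, dd a * dd a.swap = μ) :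
    ∃ d ∈ SP F m hm, ((d : GL (Fin m ⊕ Fin m) F) :
      Matrix (Fin m ⊕ Fin m) (Fin m ⊕ Fin m) F) = Matrix.diagonal (fun a => (dd a : F)) := by
  obtain ⟨d, hd, hq⟩ := exists_diag_simil' m dd μ h
  refine ⟨d, ?_, hd⟩
  have hex := exists_ne_zero _ (plusQF_nondeg m F) (hn5 m hm)
  rw [SP, mem_SS_odd h2, multF_unique hex d μ hq, hd, Matrix.det_diagonal, Fintype.prod_sum_type,
    ← Finset.prod_mul_distrib]
  have : ∀ i : Fin m, (dd (Sum.inl i) : F) * (dd (Sum.inr i) : F) = μ := by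
    intro i
    have := congrArg Units.val (h (Sum.inl i))
    simpa using this
  simp [this]

theorem exists_diag_mul_mem [Fintype F] (h2 : (2 : F) ≠ 0) (m : ℕ) (hm : 3 ≤ m)
    (g : ↥(Cfsg.Geo.quadSimilarityGroup ⇑(plusQF m F))) (hg : g ∈ SP F m hm) :
    ∃ (d : ↥(Cfsg.Geo.quadSimilarityGroup ⇑(plusQF m F))) (dd : Fin m ⊕ Fin m → Fˣ) (μ : Fˣ),
      ((d : GL (Fin m ⊕ Fin m) F) : Matrix (Fin m ⊕ Fin m) (Fin m ⊕ Fin m) F)
        = Matrix.diagonal (fun a => (dd a : F)) ∧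
      (∀ a, dd a * dd a.swap = μ) ∧
      g * d ∈ Oms (plusQF m F) ⊔ (conjPOmega ⇑(plusQF m F)).ker := by
  have hQ := plusQF_nondeg m F
  have hn := hn5 m hm
  have hex := exists_ne_zero _ hQ hn
  obtain ⟨ν, hν⟩ := exists_nonsquare_unit h2
  let i₁ : Fin m := ⟨0, by omega⟩
  -- the special isometry outside `Ω`
  let ds : Fin m ⊕ Fin m → Fˣ := Sum.elim (fun i => if i = i₁ then ν else 1)
    (fun i => if i = i₁ then ν⁻¹ else 1)
  have hds : ∀ a, ds a * ds a.swap = 1 := by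
    rintro (i | i) <;> by_cases hi : i = i₁ <;> simp [ds, hi]
  obtain ⟨s, hs, hsq⟩ := exists_diag_simil' m ds 1 hds
  have hsiso : s.1 ∈ Cfsg.isometryGroup F ⇑(plusQF m F) := by
    rw [mem_isometryGroup]
    intro v
    rw [hsq, Units.val_one, one_mul]
  have hsdet : (⟨s.1, hsiso⟩ : ↥(Cfsg.isometryGroup F ⇑(plusQF m F))) ∈
      Cfsg.specialIsometryGroup F ⇑(plusQF m F) := by
    rw [mem_specialIsometryGroup]
    show ((s : GL (Fin m ⊕ Fin m) F) : Matrix (Fin m ⊕ Fin m) (Fin m ⊕ Fin m) F).det = 1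
    rw [hs, Matrix.det_diagonal, Fintype.prod_sum_type, ← Finset.prod_mul_distrib]
    apply Finset.prod_eq_one
    intro i _
    have := congrArg Units.val (hds (Sum.inl i))
    simpa using this
  have hsΩ : (⟨s.1, hsiso⟩ : ↥(Cfsg.isometryGroup F ⇑(plusQF m F))) ∉
      Cfsg.Omega F ⇑(plusQF m F) := by
    intro hmem
    have h3 := Cfsg.Agent.S2611.result (F := F) (m := m) (by omega) (Or.inr (by omega))
      (Matrix.GeneralLinearGroup.mkOfDetNeZero
        (Matrix.diagonal (fun i : Fin m => if i = i₁ then (ν : F) else 1)) (by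
          rw [Matrix.det_diagonal, Finset.prod_ite_eq' Finset.univ i₁ (fun _ => (ν : F))]
          simp))
    rw [← plusQF_coe] at h3
    have hdet : (Matrix.diagonal (fun i : Fin m => if i = i₁ then (ν : F) else 1)).det = ν := by
      rw [Matrix.det_diagonal, Finset.prod_ite_eq' Finset.univ i₁ (fun _ => (ν : F))]
      simp
    have hinv : (Matrix.diagonal (fun i : Fin m => if i = i₁ then (ν : F) else 1))⁻¹
        = Matrix.diagonal (fun i : Fin m => if i = i₁ then (ν : F)⁻¹ else 1) := by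
      apply Matrix.inv_eq_right_inv
      rw [Matrix.diagonal_mul_diagonal, ← Matrix.diagonal_one]
      congr 1
      funext i
      by_cases hi : i = i₁ <;> simp [hi]
    apply hν
    have h4 := h3.1 ⟨⟨s.1, hsiso⟩, hmem, by
      show ((s : GL (Fin m ⊕ Fin m) F) : Matrix (Fin m ⊕ Fin m) (Fin m ⊕ Fin m) F) = _
      rw [hs]
      simp only [Matrix.GeneralLinearGroup.val_mkOfDetNeZero]
      rw [hinv, Matrix.diagonal_transpose, Matrix.fromBlocks_diagonal]
      congr 1
      funext a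
      rcases a with i | i <;> by_cases hi : i = i₁ <;> simp [ds, hi]⟩
    simp only [Matrix.GeneralLinearGroup.val_mkOfDetNeZero] at h4
    rwa [hdet] at h4
  -- reduction of the multiplier
  have key : ∀ g' : ↥(Cfsg.Geo.quadSimilarityGroup ⇑(plusQF m F)), g' ∈ SP F m hm →
      IsSquare (multF (plusQF m F) g' : F) →
      g' ∈ Oms (plusQF m F) ⊔ (conjPOmega ⇑(plusQF m F)).ker ∨
      g' * s ∈ Oms (plusQF m F) ⊔ (conjPOmega ⇑(plusQF m F)).ker := by
    intro g' hg' hsq'
    have h1 : g' ∈ (psi1 h2 hQ hex m (plus_card m)).ker :=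
      (mem_ker_psi1_iff h2 hQ hex m (plus_card m) g').2 ⟨hsq', (mem_SS_odd h2 _ _ _ _).1 hg'⟩
    rw [ker_psi1_eq' h2 hQ hn hex m (plus_card m)] at h1
    obtain ⟨y, hy, z, hz, rfl⟩ := Subgroup.mem_sup_of_normal_right.1 h1
    obtain ⟨t, ht, rfl⟩ := exists_ofO_of_mem_SOs hy
    by_cases htΩ : t ∈ Cfsg.Omega F ⇑(plusQF m F)
    · left
      exact mul_mem (Subgroup.mem_sup_left (ofO_mem_Oms.2 htΩ)) (Subgroup.mem_sup_right hz)
    · right
      have h5 : t * ⟨s.1, hsiso⟩ ∈ Cfsg.Omega F ⇑(plusQF m F) :=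
        (mul_mem_iff_of_relIndex_two (index_Omega _ hQ (Or.inr (by rw [plus_card]; omega))
          (by omega)) ht hsdet).2 (by tauto)
      have e : ofO (plusQF m F) t * z * s = (ofO (plusQF m F) (t * ⟨s.1, hsiso⟩)) *
          (s⁻¹ * z * s) := by
        have : ofO (plusQF m F) (t * ⟨s.1, hsiso⟩) = ofO (plusQF m F) t * s := rfl
        rw [this]; group
      rw [e]
      refine mul_mem (Subgroup.mem_sup_left (ofO_mem_Oms.2 h5)) (Subgroup.mem_sup_right ?_)
      have := (inferInstance : (conjPOmega ⇑(plusQF m F)).ker.Normal).conj_mem z hz s⁻¹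
      simpa using this
  by_cases hsq : IsSquare (multF (plusQF m F) g : F)
  · rcases key g hg hsq with h | h
    · refine ⟨1, fun _ => 1, 1, ?_, fun _ => by simp, by rwa [mul_one]⟩
      simp
    · exact ⟨s, ds, 1, hs, hds, h⟩
  · let dδ : Fin m ⊕ Fin m → Fˣ := Sum.elim (fun _ => ν) (fun _ => 1)
    have hdδ : ∀ a, dδ a * dδ a.swap = ν := by
      rintro (i | i) <;> simp [dδ]
    obtain ⟨δ, hδS, hδ⟩ := exists_diag_simil h2 m hm dδ ν hdδ
    obtain ⟨δ', hδ', hδq⟩ := exists_diag_simil' m dδ ν hdδ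
    have hδδ : δ' = δ := Subtype.ext (Units.ext (hδ'.trans hδ.symm))
    rw [hδδ] at hδq
    have hmδ : multF (plusQF m F) δ = ν := multF_unique hex δ ν hδq
    have h5 : IsSquare (multF (plusQF m F) (g * δ) : F) := by
      have h1 : multHom _ hex (g * δ) = multHom _ hex g * multHom _ hex δ := map_mul _ _ _
      rw [multHom_apply, multHom_apply, multHom_apply, hmδ] at h1
      rw [h1, Units.val_mul]
      exact isSquare_mul_of_not hsq hν
    rcases key (g * δ) (mul_mem hg hδS) h5 with h | h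
    · exact ⟨δ, dδ, ν, hδ, hdδ, h⟩
    · refine ⟨δ * s, fun a => dδ a * ds a, ν, ?_, ?_, by rwa [← mul_assoc]⟩
      · rw [Subgroup.coe_mul, Units.val_mul, hδ, hs, Matrix.diagonal_mul_diagonal]
        simp
      · intro a
        have := hdδ a
        have h' := hds a
        calc dδ a * ds a * (dδ a.swap * ds a.swap) = (dδ a * dδ a.swap) * (ds a * ds a.swap) := by
              rw [mul_mul_mul_comm]
          _ = ν := by rw [this, h', mul_one]

end Cfsg.Agent.Lib.Helper43.PF
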